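import Cfsg.Agent.H18.HT.Inst
import Cfsg.Agent.H501.HT.HXDbl

/-!
# S4933, unitary primes: the trace lemma for the double frame, `Y = Om_k(F')` (helper18)

`hc_pair_vd_om` : `hc_pair_vd` for `Y = F'.Om k`, with `c ∘ F.iota b = c` instead of the norms.
-/

set_option autoImplicit false
set_option linter.style.haveILetI false

open scoped ComplexConjugate
open Cfsg

namespace Cfsg.Agent.H18.HT

open Module MulAction Cfsg.Agent.H53.HC Cfsg.Agent.H477.HC Cfsg.Agent.H749.Two Cfsg.Agent.Characters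
  Cfsg.Agent.H279.Dl

universe u v w w'

variable {K : Type u} [Field K] {V : Type v} [AddCommGroup V] [Module K V] {X' : Type w} [AddCommGroup X']
  [Module K X'] {X₂ : Type w'} [AddCommGroup X₂] [Module K X₂]
variable {F : CForm K V} {F' : CForm K X'} {F₂ : CForm K X₂} {j : X' →ₗ[K] V} {j₂ : X₂ →ₗ[K] V}
  {W₀ Z₀ : Submodule K V} {W₂ : Submodule K X₂} {Z' : Submodule K X'} {b k : ℕ}

/-- **M3, for the set of totally singular subspaces of dimension `k`** -/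
theorem hc_pair_vd_om [Finite K] [FiniteDimensional K V] [Finite V] [FiniteDimensional K X'] [Finite X']
    [FiniteDimensional K X₂] [Finite X₂] [Fintype F.iso] [Fintype F'.iso] [Fintype F₂.iso]
    [Fintype (F.Om b)] [Fintype (F₂.Om b)] (h : Dbl F F' F₂ j j₂ W₀ Z₀ W₂ Z' b k) (hb : 2 ≤ b)
    (c : IrrCharacter (GL (Fin b) K)) (hcusp : IsCusp (c : GL (Fin b) K → ℂ))
    (hdual : (c : GL (Fin b) K → ℂ) ∘ F.iota b = c)
    {ρ : stabW F.iso.subtype W₀ →* F'.iso}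
    (hρ1 : ∀ (g : stabW F.iso.subtype W₀) x, ((g : F.iso) : V ≃ₗ[K] V) (j x) - j ((ρ g : X' ≃ₗ[K] X') x) ∈ W₀)
    (hρ2 : ∀ g : stabW F.iso.subtype W₀, (g : F.iso) ∈ F.TT W₀ → ρ g = 1)
    (hρ3 : ∀ (a : W₀ ≃ₗ[K] W₀) (b : F'.iso), ∃ g : stabW F.iso.subtype W₀, ρ g = b ∧
        ∀ w : W₀, ((g : F.iso) : V ≃ₗ[K] V) w = a w)
    (χ : IrrCharacter F'.iso)
    (hχ : letI := subAct F'.iso.subtype (F'.Om k) F'.Om_map
      classInner (fun g : F'.iso => (Nat.card {x : F'.Om k // g • x = x} : ℂ)) (χ : F'.iso → ℂ) = 1)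
    (Y₁ Y₂ : IrrCharacter F₂.iso) (hYne : Y₁ ≠ Y₂)
    (hYs : F₂.hc (c : GL (Fin b) K → ℂ) (fun _ _ => 1) = (Y₁ : F₂.iso → ℂ) + (Y₂ : F₂.iso → ℂ))
    (X₁ X₂' : IrrCharacter F.iso) (hXne : X₁ ≠ X₂')
    (hXs : F.hc (c : GL (Fin b) K → ℂ) (psf F W₀ ((χ : F'.iso → ℂ) ∘ ρ)) =
      (X₁ : F.iso → ℂ) + (X₂' : F.iso → ℂ))
    {p : ℕ} (hp1 : ¬ p ∣ charDegree (Y₁ : F₂.iso → ℂ)) (hp2 : ¬ p ∣ charDegree (Y₂ : F₂.iso → ℂ))
    (X : IrrCharacter F.iso) (hX : X = X₁ ∨ X = X₂') :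
    H316.HT.vd p (X : F.iso → ℂ) + (Nat.card (F₂.Om b)).factorization p =
      H316.HT.vd p (χ : F'.iso → ℂ) + (Nat.card (F.Om b)).factorization p := by
  classical
  letI := subAct F'.iso.subtype (F'.Om k) F'.Om_map
  have : Finite (F'.Om k) := Subtype.finite
  have hs : ∀ (g : F'.iso) (y : F'.Om k), ((g • y : F'.Om k) : Submodule K X') =
      (y : Submodule K X').map (F'.iso.subtype g : X' →ₗ[K] X') := fun _ _ => rfl
  have hsr : ∀ U, U ∈ F'.Om k ↔ ∃ y : F'.Om k, (y : Submodule K X') = U :=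
    fun U => ⟨fun hU => ⟨⟨U, hU⟩, rfl⟩, fun ⟨y, hy⟩ => hy ▸ y.2⟩
  exact hc_pair_vd h hb c hcusp hρ1 hρ2 hρ3
    (H501.HT.trans_Y (Subtype.val : F'.Om k → Submodule K X') Subtype.val_injective hsr hs)
    (Subtype.val : F'.Om k → Submodule K X')
    (fun g y => ⟨fun h1 => congrArg Subtype.val h1, fun h1 => Subtype.ext h1⟩) ⟨Z', h.Z'_mem⟩ rfl
    (fun χ₁ χ₂ h₁ h₂ => H501.HT.inner_psf_dbl h.cmp h.W₀_mem hb h.le' h.Z'_mem c hcusp hdual hρ1 hρ2 hρ3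
      (Subtype.val : F'.Om k → Submodule K X') Subtype.val_injective hsr hs χ₁ χ₂ h₁ h₂) χ hχ Y₁ Y₂ hYne hYs X₁ X₂'
    hXne hXs hp1 hp2 X hX

end Cfsg.Agent.H18.HT
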